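import Cfsg.Agent.H876.L64.TFive

/-!
# S5915, T4: nondegenerate subalgebras containing `L^y` are stable under `g` (helper977)

`em y = z t z⁻¹`, `em g = z t' z⁻¹` with `t, t'` in the torus, `B` an invariant symmetric form.  A Lie subalgebra `A` of
`LK` on which `B` is nondegenerate and which contains the fixed vectors of `y` is stable under `g`: modulo `z`, `A`
contains the Cartan subalgebra, two roots agree on the Cartan subalgebra modulo 2 if and only if they agree up to the
sign, and `B` pairs `e_s` with `e_{-s}` only, so that `A` contains `e_s` if it contains a vector with nonzero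
coefficient at `s`.
-/

set_option autoImplicit false
set_option maxRecDepth 100000

namespace Cfsg.Agent.H977.E8T

open Cfsg Cfsg.Lie Cfsg.Lie.ChevalleyDatum
open Cfsg.Agent.ChevalleyStructure Cfsg.Agent.ChevalleyStructure.Elts Cfsg.Agent.ChevalleyStructure.CoxeterGeomTypes
open Cfsg.Agent.Tits.Roots Cfsg.Agent.Nodes.BNOf Cfsg.Agent.Nodes.RGDChev Cfsg.Agent.KFacts.RgdChevCoord
open Cfsg.Agent.BpExc.TorChev Cfsg.Agent.H129.TorusChar
open Cfsg.Agent.H942.E8Tab Cfsg.Agent.H944.RootVals
open Cfsg.Agent.H939.L64 Cfsg.Agent.H876.L64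
open Cfsg.Agent.ChevalleyStructure.RootVec (rt)
open Cfsg.Agent.ChevalleyStructure.Columns (car)

/-! ### roots modulo 2 -/

/-- the residue modulo 2 as a natural number -/
def bt (a : ℤ) : ℕ := if a % 2 = 0 then 0 else 1

/-- the parities of the Cartan integers -/
def cdC (s : ℕ) : ℕ := bt (car chevE8 0 s) + 2 * bt (car chevE8 1 s) + 4 * bt (car chevE8 2 s) +
  8 * bt (car chevE8 3 s) + 16 * bt (car chevE8 4 s) + 32 * bt (car chevE8 5 s) + 64 * bt (car chevE8 6 s) +
  128 * bt (car chevE8 7 s)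

/-- the parities of the coordinates -/
def cdR (s : ℕ) : ℕ := bt (rt chevE8 s 0) + 2 * bt (rt chevE8 s 1) + 4 * bt (rt chevE8 s 2) +
  8 * bt (rt chevE8 s 3) + 16 * bt (rt chevE8 s 4) + 32 * bt (rt chevE8 s 5) + 64 * bt (rt chevE8 s 6) +
  128 * bt (rt chevE8 s 7)

/-- the first root with given parities (Cartan integers) -/
def inC : List ℕ := [0, 0, 0, 14, 77, 0, 7, 6, 98, 104, 0, 15, 0, 76, 5, 8, 0, 0, 0, 70, 21, 0, 109, 92, 4, 9, 0, 75, 0, 16,
  97, 103, 0, 0, 36, 0, 55, 0, 0, 0, 113, 87, 26, 0, 0, 65, 0, 0, 3, 10, 0, 74, 0, 17, 96, 102, 0, 0, 0, 69, 22, 0, 108,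
  91, 119, 78, 35, 0, 0, 56, 0, 0, 0, 0, 45, 0, 46, 0, 0, 0, 116, 83, 30, 0, 0, 61, 0, 0, 0, 0, 40, 0, 51, 0, 0, 0, 2,
  11, 0, 73, 0, 18, 95, 101, 0, 0, 0, 68, 23, 0, 107, 90, 0, 0, 37, 0, 54, 0, 0, 0, 112, 86, 27, 0, 0, 64, 0, 0, 0, 13,
  0, 71, 0, 20, 93, 99, 0, 0, 0, 66, 25, 0, 105, 88, 0, 0, 39, 0, 52, 0, 0, 0, 110, 84, 29, 0, 0, 62, 0, 0, 118, 80, 33,
  0, 0, 58, 0, 0, 0, 0, 43, 0, 48, 0, 0, 0, 114, 81, 32, 0, 0, 59, 0, 0, 0, 0, 42, 0, 49, 0, 0, 0, 1, 12, 0, 72, 0, 19,
  94, 100, 0, 0, 0, 67, 24, 0, 106, 89, 0, 0, 38, 0, 53, 0, 0, 0, 111, 85, 28, 0, 0, 63, 0, 0, 117, 79, 34, 0, 0, 57, 0,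
  0, 0, 0, 44, 0, 47, 0, 0, 0, 115, 82, 31, 0, 0, 60, 0, 0, 0, 0, 41, 0, 50, 0, 0, 0]

/-- the first root with given parities (coordinates) -/
def inR : List ℕ := [0, 77, 98, 0, 104, 76, 0, 0, 109, 0, 97, 0, 103, 75, 92, 70, 113, 0, 0, 55, 0, 0, 87, 65, 108, 0, 96, 0,
  102, 74, 91, 69, 116, 0, 0, 51, 0, 0, 83, 61, 0, 35, 0, 45, 0, 0, 0, 0, 112, 0, 0, 54, 0, 0, 86, 64, 107, 0, 95, 0,
  101, 73, 90, 68, 118, 0, 0, 48, 0, 0, 80, 58, 0, 32, 0, 42, 0, 0, 0, 0, 0, 25, 0, 0, 13, 20, 0, 0, 0, 29, 0, 39, 0, 0,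
  0, 0, 115, 0, 0, 50, 0, 0, 82, 60, 0, 34, 0, 44, 0, 0, 0, 0, 111, 0, 0, 53, 0, 0, 85, 63, 106, 0, 94, 0, 100, 72, 89,
  67, 119, 0, 0, 46, 0, 0, 78, 56, 0, 30, 0, 40, 0, 0, 0, 0, 0, 23, 2, 0, 11, 18, 0, 0, 0, 27, 0, 37, 0, 0, 0, 0, 0, 21,
  4, 0, 9, 16, 0, 0, 7, 0, 5, 0, 8, 15, 6, 14, 0, 22, 3, 0, 10, 17, 0, 0, 0, 26, 0, 36, 0, 0, 0, 0, 117, 0, 0, 47, 0, 0,
  79, 57, 0, 31, 0, 41, 0, 0, 0, 0, 0, 24, 1, 0, 12, 19, 0, 0, 0, 28, 0, 38, 0, 0, 0, 0, 114, 0, 0, 49, 0, 0, 81, 59, 0,
  33, 0, 43, 0, 0, 0, 0, 110, 0, 0, 52, 0, 0, 84, 62, 105, 0, 93, 0, 99, 71, 88, 66]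

theorem chkC : ((List.range 240).all fun s => decide (cdC s ≠ 0 ∧
    (s = inC.getD (cdC s) 0 ∨ s = 239 - inC.getD (cdC s) 0))) = true := by decide +kernel

theorem chkR : ((List.range 240).all fun s => decide (cdR s ≠ 0 ∧
    (s = inR.getD (cdR s) 0 ∨ s = 239 - inR.getD (cdR s) 0))) = true := by decide +kernel

/-- two roots with the same Cartan integers modulo 2 agree up to the sign -/
theorem eq_of_cdC {r s : ℕ} (hr : r < 240) (hs : s < 240) (h : cdC r = cdC s) : s = r ∨ s = 239 - r := by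
  have h1 := of_decide_eq_true (List.all_eq_true.1 chkC r (List.mem_range.2 hr))
  have h2 := of_decide_eq_true (List.all_eq_true.1 chkC s (List.mem_range.2 hs))
  rw [← h] at h2
  omega

/-- two roots with the same coordinates modulo 2 agree up to the sign -/
theorem eq_of_cdR {r s : ℕ} (hr : r < 240) (hs : s < 240) (h : cdR r = cdR s) : s = r ∨ s = 239 - r := by
  have h1 := of_decide_eq_true (List.all_eq_true.1 chkR r (List.mem_range.2 hr))
  have h2 := of_decide_eq_true (List.all_eq_true.1 chkR s (List.mem_range.2 hs))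
  rw [← h] at h2
  omega

theorem cdR_ne {r : ℕ} (hr : r < 240) : cdR r ≠ 0 :=
  (of_decide_eq_true (List.all_eq_true.1 chkR r (List.mem_range.2 hr))).1

theorem cdC_ne {r : ℕ} (hr : r < 240) : cdC r ≠ 0 :=
  (of_decide_eq_true (List.all_eq_true.1 chkC r (List.mem_range.2 hr))).1

theorem nroots240 : chevE8.nroots = 240 := by decide +kernel

theorem lt240 (s : Fin chevE8.nroots) : s.1 < 240 := lt_of_lt_of_eq s.2 nroots240

/-- the negative root -/
def ng (s : Fin chevE8.nroots) : Fin chevE8.nroots :=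
  ⟨239 - s.1, lt_of_lt_of_eq (show 239 - s.1 < 240 by omega) nroots240.symm⟩

theorem ng_ng (s : Fin chevE8.nroots) : ng (ng s) = s := by
  have := lt240 s
  apply Fin.ext
  show 239 - (239 - s.1) = s.1
  omega

theorem ng_ne (s : Fin chevE8.nroots) : ng s ≠ s := by
  have := lt240 s
  intro h
  have h1 : 239 - s.1 = s.1 := congrArg Fin.val h
  omega

/-- the sum of two roots is zero only if they are opposite -/
theorem eq_ng {r s : Fin chevE8.nroots} (h : vec chevE8 8 r + vec chevE8 8 s = 0) : s = ng r := by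
  have hr := lt240 r
  have hs := lt240 s
  have hc : ∀ i : Fin 8, rt chevE8 r i + rt chevE8 s i = 0 := fun i => congrFun h i
  have hb : ∀ i : Fin 8, bt (rt chevE8 s i) = bt (rt chevE8 r i) := by
    intro i
    have h1 := hc i
    unfold bt
    have h2 : rt chevE8 s i = - rt chevE8 r i := by omega
    rw [h2]
    have h3 : (-rt chevE8 r i) % 2 = 0 ↔ rt chevE8 r i % 2 = 0 := by omega
    simp only [h3]
  have h0 : cdR r = cdR s := by
    have b0 := hb 0
    have b1 := hb 1
    have b2 := hb 2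
    have b3 := hb 3
    have b4 := hb 4
    have b5 := hb 5
    have b6 := hb 6
    have b7 := hb 7
    change bt (rt chevE8 s 0) = bt (rt chevE8 r 0) at b0
    change bt (rt chevE8 s 1) = bt (rt chevE8 r 1) at b1
    change bt (rt chevE8 s 2) = bt (rt chevE8 r 2) at b2
    change bt (rt chevE8 s 3) = bt (rt chevE8 r 3) at b3
    change bt (rt chevE8 s 4) = bt (rt chevE8 r 4) at b4
    change bt (rt chevE8 s 5) = bt (rt chevE8 r 5) at b5
    change bt (rt chevE8 s 6) = bt (rt chevE8 r 6) at b6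
    change bt (rt chevE8 s 7) = bt (rt chevE8 r 7) at b7
    unfold cdR
    rw [b0, b1, b2, b3, b4, b5, b6, b7]
  rcases eq_of_cdR hr hs h0 with h1 | h1
  · exfalso
    refine cdR_ne hr ?_
    have hz : ∀ i : Fin 8, bt (rt chevE8 r i) = 0 := by
      intro i
      have h2 := hc i
      rw [h1] at h2
      have h3 : rt chevE8 r i = 0 := by omega
      rw [h3]
      rfl
    have b0 := hz 0
    have b1 := hz 1
    have b2 := hz 2
    have b3 := hz 3
    have b4 := hz 4
    have b5 := hz 5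
    have b6 := hz 6
    have b7 := hz 7
    change bt (rt chevE8 r 0) = 0 at b0
    change bt (rt chevE8 r 1) = 0 at b1
    change bt (rt chevE8 r 2) = 0 at b2
    change bt (rt chevE8 r 3) = 0 at b3
    change bt (rt chevE8 r 4) = 0 at b4
    change bt (rt chevE8 r 5) = 0 at b5
    change bt (rt chevE8 r 6) = 0 at b6
    change bt (rt chevE8 r 7) = 0 at b7
    unfold cdR
    rw [b0, b1, b2, b3, b4, b5, b6, b7]
  · exact Fin.ext h1

theorem vec_ne (r : Fin chevE8.nroots) : vec chevE8 8 r ≠ 0 := by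
  intro h
  have hr := lt240 r
  refine cdR_ne hr ?_
  have hz : ∀ i : Fin 8, bt (rt chevE8 r i) = 0 := by
    intro i
    have h3 : rt chevE8 r i = 0 := congrFun h i
    rw [h3]
    rfl
  have b0 := hz 0
  have b1 := hz 1
  have b2 := hz 2
  have b3 := hz 3
  have b4 := hz 4
  have b5 := hz 5
  have b6 := hz 6
  have b7 := hz 7
  change bt (rt chevE8 r 0) = 0 at b0
  change bt (rt chevE8 r 1) = 0 at b1
  change bt (rt chevE8 r 2) = 0 at b2
  change bt (rt chevE8 r 3) = 0 at b3
  change bt (rt chevE8 r 4) = 0 at b4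
  change bt (rt chevE8 r 5) = 0 at b5
  change bt (rt chevE8 r 6) = 0 at b6
  change bt (rt chevE8 r 7) = 0 at b7
  unfold cdR
  rw [b0, b1, b2, b3, b4, b5, b6, b7]

/-! ### torus elements -/

theorem exists_pow_ne (n : ℤ) (hn : n ≠ 0) : ∃ c : KK, c ≠ 0 ∧ c ^ n ≠ 1 := by
  classical
  have : Infinite KK := IsAlgClosed.instInfinite
  have hm : 0 < n.natAbs := Int.natAbs_pos.2 hn
  obtain ⟨c, hc⟩ := Infinite.exists_notMem_finset (insert (0 : KK) (Polynomial.nthRootsFinset n.natAbs (1 : KK)))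
  rw [Finset.mem_insert, not_or, Polynomial.mem_nthRootsFinset hm] at hc
  refine ⟨c, hc.1, fun h => hc.2 ?_⟩
  rcases Int.natAbs_eq n with h1 | h1
  · rw [h1, zpow_natCast] at h
    exact h
  · rw [h1, zpow_neg, zpow_natCast, inv_eq_one] at h
    exact h

/-- a nonzero weight is nontrivial on the torus -/
theorem exists_tor {m : Fin 8 → ℤ} (hm : m ≠ 0) : ∃ t ∈ TT chevE8 KK, cX e8T t m ≠ 1 := by
  classical
  obtain ⟨i, hi⟩ := Function.ne_iff.1 hm
  obtain ⟨c, hc0, hc⟩ := exists_pow_ne (m i) hi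
  have hφ : IsMC (fun x : Fin 8 → ℤ => c ^ x i) := by
    refine ⟨?_, fun x y => ?_⟩
    · simp
    · show c ^ (x i + y i) = c ^ x i * c ^ y i
      exact zpow_add₀ hc0 _ _
  obtain ⟨t, ht, h⟩ := exists_cX e8T (k := KK) invC_E8 one_ne_zero hφ (fun i => ⟨_, pow_one _⟩)
  refine ⟨t, ht, ?_⟩
  rw [h]
  exact hc

/-! ### the form -/

section Form

variable (B : LK →ₗ[KK] LK →ₗ[KK] KK)

/-- the basis vector of a root -/
noncomputable def ee (s : Fin chevE8.nroots) : LK := Pi.single (Sum.inr s) 1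

theorem aK_ee {t : ↥(chevE8.group KK)} (ht : t ∈ TT chevE8 KK) (s : Fin chevE8.nroots) :
    aK t (ee s) = cX e8T t (vec chevE8 8 s) • ee s := by
  classical
  funext a
  rw [aK_tor ht]
  by_cases ha : a = Sum.inr s
  · subst ha
    simp [ee]
  · rw [Pi.smul_apply, ee, Pi.single_eq_of_ne ha, mul_zero, smul_zero]

theorem aK_h {t : ↥(chevE8.group KK)} (ht : t ∈ TT chevE8 KK) (i : Fin chevE8.rank) :
    aK t (Pi.single (Sum.inl i) 1) = Pi.single (Sum.inl i) 1 := by
  classical
  funext a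
  rw [aK_tor ht]
  by_cases ha : a = Sum.inl i
  · subst ha
    simp
  · rw [Pi.single_eq_of_ne ha, mul_zero]

variable {B}
variable (hB : ∀ (g : ↥(chevE8.group KK)) v w, B (aK g v) (aK g w) = B v w)

include hB in
theorem form_h (s : Fin chevE8.nroots) (i : Fin chevE8.rank) : B (ee s) (Pi.single (Sum.inl i) 1) = 0 := by
  obtain ⟨t, ht, h⟩ := exists_tor (vec_ne s)
  have h1 := hB t (ee s) (Pi.single (Sum.inl i) 1)
  rw [aK_ee ht, aK_h ht, map_smul, LinearMap.smul_apply, smul_eq_mul] at h1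
  by_contra h0
  exact h (mul_right_cancel₀ h0 (h1.trans (one_mul _).symm))

include hB in
theorem form_e {r s : Fin chevE8.nroots} (hrs : s ≠ ng r) : B (ee r) (ee s) = 0 := by
  obtain ⟨t, ht, h⟩ := exists_tor (m := vec chevE8 8 r + vec chevE8 8 s) (fun h0 => hrs (eq_ng h0))
  have h1 := hB t (ee r) (ee s)
  rw [aK_ee ht, aK_ee ht, map_smul, map_smul, LinearMap.smul_apply, smul_eq_mul, smul_eq_mul, ← mul_assoc,
    mul_comm (cX e8T t (vec chevE8 8 s)), ← (isMC_cX e8T ht).add] at h1
  by_contra h0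
  exact h (mul_right_cancel₀ h0 (h1.trans (one_mul _).symm))

include hB in
theorem form_left (s : Fin chevE8.nroots) (x : LK) : B (ee s) x = x (Sum.inr (ng s)) * B (ee s) (ee (ng s)) := by
  classical
  have hx : x = ∑ i, x i • (Pi.single i (1 : KK) : LK) := by
    funext a
    rw [Finset.sum_apply, Finset.sum_eq_single a]
    · simp
    · intro b _ hb
      rw [Pi.smul_apply, Pi.single_eq_of_ne (Ne.symm hb), smul_zero]
    · intro h
      exact absurd (Finset.mem_univ _) h
  conv_lhs => rw [hx]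
  rw [map_sum, Finset.sum_eq_single (Sum.inr (ng s))]
  · rw [map_smul, smul_eq_mul]
    rfl
  · intro b _ hb
    rw [map_smul]
    rcases b with i | r
    · rw [form_h hB, smul_zero]
    · rw [show (Pi.single (Sum.inr r) (1 : KK) : LK) = ee r from rfl, form_e hB (fun h => hb (by rw [h])), smul_zero]
  · intro h
    exact absurd (Finset.mem_univ _) h

end Form

/-! ### projections -/

/-- the operator with eigenvalue 1 on the weights odd (`b = true`) or even (`b = false`) at `i` -/
noncomputable def pj (p : Fin chevE8.rank × Bool) (u : LK) : LK :=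
  if p.2 then brK (Sum.elim (Pi.single p.1 1) 0) u else u + brK (Sum.elim (Pi.single p.1 1) 0) u

theorem br_single (i : Fin chevE8.rank) (u : LK) : brK (Sum.elim (Pi.single i 1) 0) u =
    (Sum.elim (fun _ => (0 : KK)) (fun s : Fin chevE8.nroots => ((car chevE8 i s : ℤ) : KK) * u (Sum.inr s)) : LK) := by
  classical
  rw [h_br]
  funext a
  rcases a with a | s
  · rfl
  · show (∑ j, (Pi.single i (1 : KK) : Fin chevE8.rank → KK) j * ((car chevE8 j s : ℤ) : KK)) * u (Sum.inr s) = _
    rw [Finset.sum_eq_single i]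
    · rw [Pi.single_eq_same, one_mul]
      rfl
    · intro j _ hj
      rw [Pi.single_eq_of_ne hj, zero_mul]
    · intro h
      exact absurd (Finset.mem_univ _) h

theorem cast_par (a : ℤ) : ((a : ℤ) : KK) = if a % 2 = 0 then 0 else 1 := by
  have h2 := two_zero
  have h1 : a = 2 * (a / 2) + a % 2 := (Int.mul_ediv_add_emod a 2).symm
  have h3 : ((a : ℤ) : KK) = ((a % 2 : ℤ) : KK) := by
    conv_lhs => rw [h1]
    push_cast
    rw [h2, zero_mul, zero_add]
  rw [h3]
  rcases Int.emod_two_eq_zero_or_one a with h | h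
  · rw [h]; simp
  · rw [h]; simp

theorem pj_inl (p : Fin chevE8.rank × Bool) (u : LK) (j : Fin chevE8.rank) :
    pj p u (Sum.inl j) = if p.2 then 0 else u (Sum.inl j) := by
  unfold pj
  rcases p with ⟨i, b⟩
  cases b
  · simp only [Bool.false_eq_true, if_false]
    rw [br_single, Pi.add_apply, Sum.elim_inl, add_zero]
  · simp only [if_true]
    rw [br_single, Sum.elim_inl]

theorem pj_inr (p : Fin chevE8.rank × Bool) (u : LK) (s : Fin chevE8.nroots) :
    pj p u (Sum.inr s) = if p.2 = decide (car chevE8 p.1 s % 2 ≠ 0) then u (Sum.inr s) else 0 := by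
  unfold pj
  rcases p with ⟨i, b⟩
  have h2 := two_zero
  cases b
  · simp only [Bool.false_eq_true, if_false]
    rw [br_single, Pi.add_apply, Sum.elim_inr, cast_par]
    by_cases h : car chevE8 i s % 2 = 0
    · simp [h]
    · have h3 : (1 : KK) + 1 = 0 := by rw [one_add_one_eq_two]; exact h2
      simp only [h, if_false, one_mul, ne_eq, not_false_eq_true, decide_true, Bool.false_eq_true]
      rw [← two_mul, h2, zero_mul]
  · simp only [if_true]
    rw [br_single, Sum.elim_inr, cast_par]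
    by_cases h : car chevE8 i s % 2 = 0
    · simp [h]
    · simp [h]

/-- a product of projections -/
noncomputable def pjs (l : List (Fin chevE8.rank × Bool)) (u : LK) : LK := l.foldr pj u

theorem pjs_inl (l : List (Fin chevE8.rank × Bool)) (u : LK) (j : Fin chevE8.rank) :
    pjs l u (Sum.inl j) = if ∀ p ∈ l, p.2 = false then u (Sum.inl j) else 0 := by
  classical
  induction l with
  | nil => simp [pjs]
  | cons p l ih =>
    show pj p (pjs l u) (Sum.inl j) = _
    rw [pj_inl, ih]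
    rcases p with ⟨i, b⟩
    cases b
    · simp
    · simp

theorem pjs_inr (l : List (Fin chevE8.rank × Bool)) (u : LK) (s : Fin chevE8.nroots) :
    pjs l u (Sum.inr s) = if ∀ p ∈ l, p.2 = decide (car chevE8 p.1 s % 2 ≠ 0) then u (Sum.inr s) else 0 := by
  classical
  induction l with
  | nil => simp [pjs]
  | cons p l ih =>
    show pj p (pjs l u) (Sum.inr s) = _
    rw [pj_inr, ih]
    by_cases h1 : p.2 = decide (car chevE8 p.1 s % 2 ≠ 0)
    · by_cases h2 : ∀ q ∈ l, q.2 = decide (car chevE8 q.1 s % 2 ≠ 0)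
      · rw [if_pos h1, if_pos h2, if_pos]
        intro q hq
        rcases List.mem_cons.1 hq with rfl | hq
        · exact h1
        · exact h2 q hq
      · rw [if_pos h1, if_neg h2, if_neg]
        exact fun h => h2 fun q hq => h q (List.mem_cons_of_mem _ hq)
    · rw [if_neg h1, if_neg]
      exact fun h => h1 (h p List.mem_cons_self)

/-- the list of the parities of a root -/
def pl (s : Fin chevE8.nroots) : List (Fin chevE8.rank × Bool) :=
  (List.finRange chevE8.rank).map fun i => (i, decide (car chevE8 i s % 2 ≠ 0))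

theorem mem_pl {s : Fin chevE8.nroots} {p : Fin chevE8.rank × Bool} :
    p ∈ pl s ↔ p.2 = decide (car chevE8 p.1 s % 2 ≠ 0) := by
  unfold pl
  rw [List.mem_map]
  constructor
  · rintro ⟨i, -, rfl⟩
    rfl
  · intro h
    exact ⟨p.1, List.mem_finRange _, by rw [← h]⟩

theorem rank8 : chevE8.rank = 8 := by decide +kernel

theorem bt_eq {a b : ℤ} (h : decide (a % 2 ≠ 0) = decide (b % 2 ≠ 0)) : bt a = bt b := by
  unfold bt
  by_cases h1 : a % 2 = 0
  · by_cases h2 : b % 2 = 0
    · rw [if_pos h1, if_pos h2]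
    · simp [h1, h2] at h
  · by_cases h2 : b % 2 = 0
    · simp [h1, h2] at h
    · rw [if_neg h1, if_neg h2]

/-- the projection onto `⟨e_s, e_{-s}⟩` -/
theorem pjs_pl (s : Fin chevE8.nroots) (u : LK) :
    pjs (pl s) u = u (Sum.inr s) • ee s + u (Sum.inr (ng s)) • ee (ng s) := by
  classical
  funext a
  rcases a with j | r
  · rw [pjs_inl, if_neg]
    · simp [ee]
    · intro h
      have hs := lt240 s
      refine cdC_ne hs ?_
      have hz : ∀ i : ℕ, i < 8 → bt (car chevE8 i s) = 0 := by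
        intro i hi
        have h1 := h (⟨i, by rw [rank8]; exact hi⟩, decide (car chevE8 i s % 2 ≠ 0)) (mem_pl.2 rfl)
        have h2 : car chevE8 i s % 2 = 0 := by
          by_contra h3
          simp [h3] at h1
        unfold bt
        rw [if_pos h2]
      unfold cdC
      rw [hz 0 (by norm_num), hz 1 (by norm_num), hz 2 (by norm_num), hz 3 (by norm_num), hz 4 (by norm_num),
        hz 5 (by norm_num), hz 6 (by norm_num), hz 7 (by norm_num)]
  · rw [pjs_inr]
    have e1 : (u (Sum.inr s) • ee s + u (Sum.inr (ng s)) • ee (ng s) : LK) (Sum.inr r) =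
        (if r = s then u (Sum.inr s) else 0) + (if r = ng s then u (Sum.inr (ng s)) else 0) := by
      rw [Pi.add_apply, Pi.smul_apply, Pi.smul_apply]
      unfold ee
      by_cases h1 : r = s
      · subst h1
        rw [Pi.single_eq_same, if_pos rfl, Pi.single_eq_of_ne (fun h => (ng_ne r) (Sum.inr.inj h).symm),
          if_neg (Ne.symm (ng_ne r))]
        simp
      · by_cases h2 : r = ng s
        · subst h2
          rw [Pi.single_eq_same, if_pos rfl, Pi.single_eq_of_ne (fun h => h1 (Sum.inr.inj h)), if_neg h1]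
          simp
        · rw [Pi.single_eq_of_ne (fun h => h1 (Sum.inr.inj h)), Pi.single_eq_of_ne (fun h => h2 (Sum.inr.inj h)),
            if_neg h1, if_neg h2]
          simp
    rw [e1]
    have hs := lt240 s
    have hr := lt240 r
    by_cases hp : ∀ p ∈ pl s, p.2 = decide (car chevE8 p.1 r % 2 ≠ 0)
    · rw [if_pos hp]
      have hb : ∀ i : ℕ, i < 8 → bt (car chevE8 i s) = bt (car chevE8 i r) := by
        intro i hi
        exact bt_eq (hp (⟨i, by rw [rank8]; exact hi⟩, decide (car chevE8 i s % 2 ≠ 0)) (mem_pl.2 rfl))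
      have hc : cdC s = cdC r := by
        unfold cdC
        rw [hb 0 (by norm_num), hb 1 (by norm_num), hb 2 (by norm_num), hb 3 (by norm_num), hb 4 (by norm_num),
          hb 5 (by norm_num), hb 6 (by norm_num), hb 7 (by norm_num)]
      rcases eq_of_cdC hs hr hc with h | h
      · have h1 : r = s := Fin.ext h
        subst h1
        rw [if_pos rfl, if_neg (Ne.symm (ng_ne r)), add_zero]
      · have h1 : r = ng s := Fin.ext h
        subst h1
        rw [if_neg (ng_ne s), if_pos rfl, zero_add]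
    · rw [if_neg hp]
      by_cases h1 : r = s
      · subst h1
        exact absurd (fun p hp => mem_pl.1 hp) hp
      · by_cases h2 : r = ng s
        · exfalso
          subst h2
          apply hp
          intro p hp
          rw [mem_pl.1 hp]
          have h3 : ((List.range 8).all fun i => (List.range 240).all fun s =>
              decide (decide (car chevE8 i s % 2 ≠ 0) = decide (car chevE8 i (239 - s) % 2 ≠ 0))) = true := by
            decide +kernel
          have hi : (p.1 : ℕ) < 8 := lt_of_lt_of_eq p.1.2 rank8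
          exact of_decide_eq_true (List.all_eq_true.1 (List.all_eq_true.1 h3 p.1 (List.mem_range.2 hi)) s
            (List.mem_range.2 hs))
        · rw [if_neg h1, if_neg h2, add_zero]

/-! ### T4 -/

/-- **T4** -/
theorem T4 {y g : E2} {z t t' : ↥(chevE8.group KK)}
    (ht : t ∈ TT chevE8 KK) (ht' : t' ∈ TT chevE8 KK)
    (hy : em y = z * t * z⁻¹) (hg : em g = z * t' * z⁻¹) (B : LK →ₗ[KK] LK →ₗ[KK] KK)
    (hB : ∀ (g : ↥(chevE8.group KK)) v w, B (aK g v) (aK g w) = B v w) (hsym : ∀ v w, B v w = B w v)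
    (hnd : ∀ v, (∀ w, B v w = 0) → v = 0) (A : Submodule KK LK) (hA : ∀ v, rE y v = v → v ∈ A)
    (hbr : ∀ a ∈ A, ∀ b ∈ A, brK a b ∈ A) (hAnd : ∀ a ∈ A, (∀ b ∈ A, B a b = 0) → a = 0) :
    ∀ v ∈ A, rE g v ∈ A := by
  classical
  -- the conjugate subalgebra
  obtain ⟨A', hA'⟩ : ∃ A' : Submodule KK LK, ∀ u, u ∈ A' ↔ aK z u ∈ A := by
    refine ⟨{ carrier := {u | aK z u ∈ A}
              add_mem' := ?_
              zero_mem' := ?_
              smul_mem' := ?_ }, fun u => Iff.rfl⟩
    · intro a b ha hb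
      show aK z (a + b) ∈ A
      rw [aK_add]
      exact A.add_mem ha hb
    · show aK z 0 ∈ A
      rw [aK_zero]
      exact A.zero_mem
    · intro c a ha
      show aK z (c • a) ∈ A
      rw [aK_smul]
      exact A.smul_mem c ha
  have hnd' : ∀ a ∈ A', (∀ b ∈ A', B a b = 0) → a = 0 := by
    intro a ha h
    have h1 : aK z a = 0 := by
      refine hAnd _ ((hA' a).1 ha) fun b hb => ?_
      have h2 : b = aK z (aK z⁻¹ b) := (aK_inv z b).symm
      rw [h2, hB]
      refine h _ ((hA' _).2 ?_)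
      rw [aK_inv]
      exact hb
    have h2 := congrArg (aK z⁻¹) h1
    rwa [aK_inv', aK_zero] at h2
  have hh : ∀ (c : Fin chevE8.rank → KK) (u : LK), u ∈ A' → brK (Sum.elim c 0) u ∈ A' := by
    intro c u hu
    rw [hA', aK_brK]
    refine hbr _ (hA _ ?_) _ ((hA' u).1 hu)
    rw [fix_iff hy, aK_inv']
    exact fix_h ht c
  have hpj : ∀ (l : List (Fin chevE8.rank × Bool)) (u : LK), u ∈ A' → pjs l u ∈ A' := by
    intro l
    induction l with
    | nil => exact fun u hu => hu
    | cons p l ih =>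
      intro u hu
      show pj p (pjs l u) ∈ A'
      have h1 := ih u hu
      unfold pj
      split_ifs
      · exact hh _ _ h1
      · exact A'.add_mem h1 (hh _ _ h1)
  have hpr : ∀ (s : Fin chevE8.nroots) (u : LK), u ∈ A' →
      u (Sum.inr s) • ee s + u (Sum.inr (ng s)) • ee (ng s) ∈ A' := by
    intro s u hu
    rw [← pjs_pl]
    exact hpj _ u hu
  -- the basis vectors
  have hee : ∀ (s : Fin chevE8.nroots) (u : LK), u ∈ A' → u (Sum.inr s) ≠ 0 → ee s ∈ A' := by
    intro s u hu h0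
    have hw := hpr s u hu
    by_cases h1 : u (Sum.inr (ng s)) = 0
    · rw [h1, zero_smul, add_zero] at hw
      have h2 := A'.smul_mem (u (Sum.inr s))⁻¹ hw
      rwa [smul_smul, inv_mul_cancel₀ h0, one_smul] at h2
    · obtain ⟨b, hb, hne⟩ : ∃ b ∈ A', B (u (Sum.inr s) • ee s + u (Sum.inr (ng s)) • ee (ng s)) b ≠ 0 := by
        by_contra hcon
        push Not at hcon
        have h2 := hnd' _ hw hcon
        have h3 := congrFun h2 (Sum.inr s)
        rw [Pi.add_apply, Pi.smul_apply, Pi.smul_apply] at h3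
        unfold ee at h3
        rw [Pi.single_eq_same, Pi.single_eq_of_ne (fun h => (ng_ne s) (Sum.inr.inj h).symm)] at h3
        apply h0
        simpa using h3
      rw [map_add, LinearMap.add_apply, map_smul, map_smul, LinearMap.smul_apply, LinearMap.smul_apply,
        form_left hB s b, form_left hB (ng s) b, ng_ng, hsym (ee (ng s)) (ee s), smul_eq_mul, smul_eq_mul,
        ← mul_assoc, ← mul_assoc, ← add_mul] at hne
      have hd := left_ne_zero_of_mul hne
      have hb' := hpr s b hb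
      have h2 := A'.add_mem (A'.smul_mem (b (Sum.inr (ng s))) hw) (A'.smul_mem (u (Sum.inr (ng s))) hb')
      have h3 : b (Sum.inr (ng s)) • (u (Sum.inr s) • ee s + u (Sum.inr (ng s)) • ee (ng s)) +
          u (Sum.inr (ng s)) • (b (Sum.inr s) • ee s + b (Sum.inr (ng s)) • ee (ng s)) =
          (u (Sum.inr s) * b (Sum.inr (ng s)) + u (Sum.inr (ng s)) * b (Sum.inr s)) • ee s := by
        have h4 : (b (Sum.inr (ng s)) * u (Sum.inr (ng s)) + u (Sum.inr (ng s)) * b (Sum.inr (ng s)) : KK) = 0 := by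
          rw [mul_comm (u (Sum.inr (ng s))), ← two_mul, two_zero, zero_mul]
        rw [smul_add, smul_add, smul_smul, smul_smul, smul_smul, smul_smul, add_add_add_comm, ← add_smul, ← add_smul, h4,
          zero_smul, add_zero, mul_comm (b (Sum.inr (ng s)))]
      rw [h3] at h2
      have h5 := A'.smul_mem (u (Sum.inr s) * b (Sum.inr (ng s)) + u (Sum.inr (ng s)) * b (Sum.inr s))⁻¹ h2
      rwa [smul_smul, inv_mul_cancel₀ hd, one_smul] at h5
  -- conclusion
  intro v hv
  obtain ⟨u, hu⟩ : ∃ u, u = aK z⁻¹ v := ⟨_, rfl⟩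
  have huA : u ∈ A' := by
    rw [hA', hu, aK_inv]
    exact hv
  have h1 : rE g v = aK z (aK t' u) := by
    rw [rE_apply, hg, aK_mul, aK_mul, hu]
  rw [h1, ← hA']
  have h2 : aK t' u = u + ∑ s : Fin chevE8.nroots, ((cX e8T t' (vec chevE8 8 s) - 1) * u (Sum.inr s)) • ee s := by
    funext a
    rw [aK_tor ht', Pi.add_apply, Finset.sum_apply]
    rcases a with j | r
    · rw [Finset.sum_eq_zero]
      · simp
      · intro s _
        rw [Pi.smul_apply, ee, Pi.single_eq_of_ne (by simp), smul_zero]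
    · rw [Finset.sum_eq_single r]
      · rw [Pi.smul_apply, ee, Pi.single_eq_same, Sum.elim_inr, smul_eq_mul]
        ring
      · intro s _ hs
        rw [Pi.smul_apply, ee, Pi.single_eq_of_ne (fun h => hs (Sum.inr.inj h).symm), smul_zero]
      · intro h
        exact absurd (Finset.mem_univ _) h
  rw [h2]
  refine A'.add_mem huA (A'.sum_mem fun s _ => ?_)
  by_cases h0 : u (Sum.inr s) = 0
  · rw [h0, mul_zero, zero_smul]
    exact A'.zero_mem
  · exact A'.smul_mem _ (hee s u huA h0)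

end Cfsg.Agent.H977.E8T
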